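import Cfsg.Agent.Lib.Helper3.Stcs6

set_option autoImplicit false
set_option maxRecDepth 100000

namespace Cfsg.Agent.Lib.Helper3.L211a

open Cfsg.Agent.Lib.Helper11 Cfsg.Agent.Lib.Helper3

set_option maxHeartbeats 0

noncomputable def ntl : List (List (ℕ × ℕ)) := [[], [(0x12, 8), (0x108, 4), (0x201, 2), (0x440, 1), (0x200, 2), (0x8, 4), (0x12, 8)], [(0x18, 8), (0xa02, 4), (0x2120, 2), (0x1000, 1), (0x0, 2), (0xa00, 4), (0x1c, 8)], [(0x1c, 8), (0xa0a, 4), (0x102, 2), (0x1000, 1), (0x2000, 2), (0xa08, 4), (0x18, 8)], [(0x18, 8), (0xa02, 4), (0x2120, 2), (0x1000, 1), (0x0, 2), (0xa00, 4), (0x1c, 8)], [(0x1c, 8), (0xa0a, 4), (0x102, 2), (0x1000, 1), (0x2000, 2), (0xa08, 4), (0x18, 8)], [(0x0, 8), (0x8, 4), (0x30, 2), (0x104, 1), (0x0, 2), (0x8, 4), (0x0, 8)], [(0x0, 8), (0x8, 4), (0x30, 2), (0x104, 1), (0x0, 2), (0x8, 4), (0x0, 8)], [(0x0, 8), (0x8, 4), (0x330, 2), (0x414, 1), (0x200, 2), (0x4, 4), (0x0,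 8)], [(0x0, 8), (0x4, 4), (0x130, 2), (0x144, 1), (0x0, 2), (0x8, 4), (0x0, 8)]]
noncomputable def INV : ℕ := 291617681509408
abbrev deg : ℕ := 11

theorem setup : NetSetup ntl deg 4 INV 9 where
  hok := by decide +kernel
  hstab := by decide +kernel
  hlen := by decide +kernel
  h0 := by decide +kernel
  hINV := by decide +kernel
  hINV0 := by decide +kernel
  htriv := by decide +kernel

end Cfsg.Agent.Lib.Helper3.L211a
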