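import Mathlib

set_option autoImplicit false
set_option maxRecDepth 100000

namespace Cfsg.Agent.Lib.Helper3.L211a.L3

noncomputable def fc0_0 (i : ℕ) : ℕ := (nat_lit 0x40000a90000050000880000020000690000030000480000050000470000020000a70000040000670000030000870000010000a8000005000029000001000089000004000028000000000068000003000009000000000049000002000008000000000027000001000007)
noncomputable def sc0_0 (i : ℕ) : ℕ := (nat_lit 0x400000100000d00000e0000060005000400000b0000080002000300000300000b00000800030002000003000009000004000300010000ffff0000ffff0000ffff0000ffff0000ffff)
noncomputable def nc0_0 (i : ℕ) : ℕ := (nat_lit 0x5000004000003000002000001000000)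
noncomputable def cc0_0 (i : ℕ) : ℕ := (nat_lit 0x400001000000200000d00000100000600000300000b00000200000e00000400000a00000000000200000500000c000005000009000000000000000003000005000001000001)

end Cfsg.Agent.Lib.Helper3.L211a.L3
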